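import Cfsg.Agent.H345.SN.Tools
import Cfsg.Agent.H345.IRowCo3
import Cfsg.Agent.StandardComponent.SpTwoAut

/-!
# S3831, `Co3` (helper345)

`g3_co3 : G3 (PSp 3 F) → G3 M12 → IsoCo3 K → G3 K` (`|F| = 2`).
-/

set_option autoImplicit false

namespace Cfsg.Agent.H345.SN

open Cfsg Subgroup Cfsg.Agent.H459.Rad Cfsg.Agent.H21.SN
open Cfsg.Agent.H345.IRowCo (finG3 center_G3 cent_equiv not_solvable3)
open Cfsg.Agent.SporRec.Co3.Ident (Z)
open Cfsg.Agent.CpAutCo3.MTw (ww ee wC ker_cases cls)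

/-- a kernel of order at most two -/
theorem not_three_of_ker {H L : Type*} [Group H] [Group L] (π : H →* L) {z : H} (hz : z * z = 1)
    (hk : ∀ g, π g = 1 → g = 1 ∨ g = z) (g : H) (hg : π g = 1) : orderOf g ≠ 3 := by
  intro ho
  have h2 : g ^ 2 = 1 := by
    rcases hk g hg with h | h
    · rw [h, one_pow]
    · rw [h, pow_two, hz]
  have h3 := orderOf_dvd_of_pow_eq_one h2
  rw [ho] at h3
  norm_num at h3

theorem ker_solvable_of {H L : Type*} [Group H] [Group L] (π : H →* L) {z : H}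
    (hk : ∀ g, π g = 1 → g = 1 ∨ g = z) : Group.IsSolvable π.ker := by
  refine Group.isSolvable_of_comm fun a b => ?_
  have h1 : ∀ c : π.ker, c = 1 ∨ (c : H) = z := by
    intro c
    rcases hk c c.2 with h | h
    · exact Or.inl (Subtype.ext h)
    · exact Or.inr h
  rcases h1 a with rfl | ha
  · rw [one_mul, mul_one]
  · rcases h1 b with rfl | hb
    · rw [one_mul, mul_one]
    · apply Subtype.ext
      show (a : H) * b = b * a
      rw [ha, hb]

theorem center_bot_of_simple {S : Type*} [Group S] [Finite S] [IsSimpleGroup S] (h : ¬ (Nat.card S).Prime) :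
    center S = ⊥ := by
  rcases (inferInstance : (center S).Normal).eq_bot_or_eq_top with h1 | h1
  · exact h1
  · refine absurd (Group.isSolvable_of_comm fun a b => ?_) (not_solvable3 h)
    exact (mem_center_iff.1 (h1 ▸ mem_top b)) a

/-- a conjugate of `t` with a good centralizer -/
theorem Bad.false_of_comm_conj {K : Type*} [Group K] [Finite K] {x t s g : K} (h : Bad x) (hs : g * t * g⁻¹ = s)
    (hxs : x * s = s * x) {L : Type*} [Group L] [Finite L]
    (f : ↥(centralizer ({t} : Set K)) →* L) (hf : Function.Surjective f) (hk : Group.IsSolvable f.ker)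
    (h3 : ∀ g : ↥(centralizer ({t} : Set K)), f g = 1 → orderOf g ≠ 3) (hL : G3 L) (hZ : center L = ⊥) : False := by
  refine (h.conj g⁻¹).false_of_comm (t := t) ?_ f hf hk h3 hL hZ
  have h1 : t = g⁻¹ * s * g := by rw [← hs]; group
  rw [inv_inv]
  calc g⁻¹ * x * g * t = g⁻¹ * (x * s) * g := by rw [h1]; group
    _ = g⁻¹ * (s * x) * g := by rw [hxs]
    _ = t * (g⁻¹ * x * g) := by rw [h1]; group

theorem inn_co3 (hSp : H21.SN.G3 Cfsg.Agent.SporRec.TwoSp6.Sp.S) (hM : H21.SN.G3 Spor.M12) :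
    G3Inn Cfsg.Agent.SporRec.Co3.Chain.G3 := by
  have := finG3
  intro x hB
  obtain ⟨t, ht2, ht1, htx⟩ := Cfsg.Agent.H143.Co3Inv.three_inv (x := x)
    (by rw [← hB.ord, pow_orderOf_eq_one]) (fun h => by have := hB.ord; rw [h, orderOf_one] at this; norm_num at this)
  rcases cls ht2 ht1 with ⟨g, hg⟩ | ⟨g, hg⟩
  · obtain ⟨π, N⟩ := Cfsg.Agent.KFacts.Co3D4.exists_NS_G3
    have hS := Cfsg.Agent.Co2Type.Setup.isSimpleGroup_sp6
    have hc := Cfsg.Agent.SporRec.TwoSp6.Sp.card_S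
    have hf : Finite Cfsg.Agent.SporRec.TwoSp6.Sp.S := Nat.finite_of_card_ne_zero (by rw [hc]; norm_num)
    exact hB.false_of_comm_conj (t := Z) (g := g) hg htx.symm π N.surj (ker_solvable_of π N.ker)
      (not_three_of_ker π N.z_sq N.ker) hSp (center_bot_of_simple (by rw [hc]; norm_num))
  · have hMs := Cfsg.Agent.CTwoTab.Co3.simple_M12
    have hf : Finite Spor.M12 := Cfsg.Agent.CpAutCo3.MTw.finM
    let e : ↥Cfsg.Agent.SigZero.CoThreeB.C ≃* ↥(centralizer ({ww} : Set Cfsg.Agent.SporRec.Co3.Chain.G3)) :=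
      cent_equiv ee Cfsg.Agent.SigZero.CoThreeB.wK
    let π : ↥(centralizer ({ww} : Set Cfsg.Agent.SporRec.Co3.Chain.G3)) →* Spor.M12 :=
      Cfsg.Agent.SigZero.CoThreeB.proj.comp e.symm.toMonoidHom
    have hk : ∀ g, π g = 1 → g = 1 ∨ g = e Cfsg.Agent.CpAutCo3.MTw.wC := by
      intro g hg
      rcases ker_cases (g := e.symm g) hg with h | h
      · left
        have := congrArg e h
        rwa [e.apply_symm_apply, map_one] at this
      · right
        have := congrArg e h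
        rwa [e.apply_symm_apply] at this
    have hz : e Cfsg.Agent.CpAutCo3.MTw.wC * e Cfsg.Agent.CpAutCo3.MTw.wC = 1 := by
      rw [← map_mul, Cfsg.Agent.CpAutCo3.MTw.wC_sq, map_one]
    exact hB.false_of_comm_conj (t := ww) (g := g) hg htx.symm π
      (Cfsg.Agent.SigZero.CoThreeB.proj_surj.comp e.symm.surjective) (ker_solvable_of π hk)
      (not_three_of_ker π hz hk) hM
      (center_bot_of_simple (by rw [Cfsg.Agent.MTwelveType.SylowModel.card_M12]; norm_num))

/-- **`Co3`** from `PSp₆(2)` and `M₁₂` -/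
theorem g3_co3 (hSp : H21.SN.G3 (PSp 3 (ZMod 2))) (hM : H21.SN.G3 Spor.M12) {K : Type*} [Group K]
    [Finite K] (h : Cfsg.Spor.IsoCo3 K) : H21.SN.G3 K := by
  have := finG3
  obtain ⟨eS⟩ := Cfsg.Agent.StandardComponent.SpTwoAut.exists_equiv₀
  have hfS : Finite Cfsg.Agent.SporRec.TwoSp6.Sp.S :=
    Nat.finite_of_card_ne_zero (by rw [Cfsg.Agent.SporRec.TwoSp6.Sp.card_S]; norm_num)
  have hfP : Finite (PSp 3 (ZMod 2)) := Finite.of_equiv _ eS.symm.toEquiv
  have hSp := H21.SN.G3.congr eS.symm hSp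
  have hI : Cfsg.Spor.IsoCo3 Cfsg.Agent.SporRec.Co3.Chain.G3 := ⟨Cfsg.Agent.SporRec.Co3.Model.equivCo3⟩
  obtain ⟨e⟩ := h
  exact H21.SN.G3.congr (e.trans Cfsg.Agent.SporRec.Co3.Model.equivCo3.symm) (G3Inn.g3 center_G3
    (Cfsg.Agent.BpSpor.Inn.co3 hI 3 Nat.prime_three (by norm_num)) (inn_co3 hSp hM))

end Cfsg.Agent.H345.SN
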