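import Mathlib
import Cfsg.Agent.H21.SN.Tools
import Cfsg.Agent.H839.Rad.Base

/-!
# S3831, inner automorphisms of order three: tools (helper345)

* `G3Inn K` : the row for inner automorphisms; `G3Inn.g3`;
* `Bad x` : `orderOf x = 3`, `PS 2 (conj x)`, `RN (conj x)`; `Bad.conj`;
* `Bad.map_eq_one` : `x ∈ M`, `f : M → L` onto with solvable kernel, `G3 L`, `Z(L) = 1`: `f x = 1`;
* `Bad.mem_radical`.
-/

set_option autoImplicit false

namespace Cfsg.Agent.H345.SN

open Cfsg Subgroup Cfsg.Agent.H459.Rad Cfsg.Agent.H21.SN Cfsg.Agent.SignalizersComponents.ComponentExists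
open Cfsg.Agent.H839.Rad (conj_injective ps_conj)

variable {K : Type*} [Group K]

/-- an inner automorphism of order three to be excluded -/
structure Bad (x : K) : Prop where
  ord : orderOf x = 3
  ps : PS 2 (MulAut.conj x)
  rn : RN (MulAut.conj x)

/-- **the row for inner automorphisms** -/
def G3Inn (K : Type*) [Group K] : Prop := ∀ x : K, ¬ Bad x

theorem G3Inn.g3 (hZ : center K = ⊥) (hin : ∀ x : MulAut K, orderOf x = 3 → ∃ a : K, x = MulAut.conj a)
    (h : G3Inn K) : G3 K := by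
  intro x hx hP hR
  obtain ⟨a, rfl⟩ := hin x hx
  rw [orderOf_injective _ (conj_injective hZ)] at hx
  exact h a ⟨hx, hP, hR⟩

variable [Finite K]

theorem Bad.conj {x : K} (h : Bad x) (g : K) : Bad (g * x * g⁻¹) := by
  refine ⟨?_, ps_conj h.ps g, ?_⟩
  · rw [← MulAut.conj_apply, MulEquiv.orderOf_eq, h.ord]
  · have h1 := RN.tr (MulAut.conj g) h.rn
    have h2 : H459.Rad.tr (MulAut.conj g) (MulAut.conj x) = MulAut.conj (g * x * g⁻¹) := by
      ext k
      rw [tr_apply, MulAut.conj_apply, MulAut.conj_apply, MulAut.conj_apply, MulAut.conj_symm_apply]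
      group
    rwa [h2] at h1

/-- **sections** -/
theorem Bad.map_eq_one {x : K} (h : Bad x) {M : Subgroup K} (hx : x ∈ M) {L : Type*} [Group L] [Finite L]
    (f : M →* L) (hf : Function.Surjective f) (hk : Group.IsSolvable f.ker) (hL : G3 L) (hZ : center L = ⊥) :
    f ⟨x, hx⟩ = 1 := by
  by_contra hne
  have hM : ∀ m ∈ M, MulAut.conj x m ∈ M := fun m hm => M.mul_mem (M.mul_mem hx hm) (M.inv_mem hx)
  have hy : ∀ m : M, f ⟨MulAut.conj x m, hM m m.2⟩ = MulAut.conj (f ⟨x, hx⟩) (f m) := by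
    intro m
    show _ = f ⟨x, hx⟩ * f m * (f ⟨x, hx⟩)⁻¹
    rw [← map_mul, ← map_inv, ← map_mul]
    rfl
  refine hL (MulAut.conj (f ⟨x, hx⟩)) ?_ (PS.sec h.ps hM f hf _ hy) (RN.sec h.rn hM f hf hk _ hy)
  rw [orderOf_injective _ (conj_injective hZ)]
  have h1 : orderOf (f ⟨x, hx⟩) ∣ 3 := by
    have h2 := orderOf_map_dvd f ⟨x, hx⟩
    rwa [Subgroup.orderOf_mk, h.ord] at h2
  rcases (Nat.dvd_prime Nat.prime_three).1 h1 with h2 | h2
  · exact absurd (orderOf_eq_one_iff.1 h2) hne
  · exact h2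

/-- the element lies in the solvable radical of `M` -/
theorem Bad.mem_radical {x : K} (h : Bad x) {M : Subgroup K} (hx : x ∈ M) {L : Type*} [Group L] [Finite L]
    (f : M →* L) (hf : Function.Surjective f) (hk : Group.IsSolvable f.ker) (hL : G3 L) (hZ : center L = ⊥) :
    (⟨x, hx⟩ : M) ∈ solvableRadical M :=
  le_rad (MonoidHom.normal_ker f) hk (MonoidHom.mem_ker.2 (h.map_eq_one hx f hf hk hL hZ))

/-- centralizers of involutions whose quotient by a normal `3'`-subgroup is a group with `G3` -/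
theorem Bad.false_of_comm {x t : K} (h : Bad x) (hxt : x * t = t * x) {L : Type*} [Group L] [Finite L]
    (f : ↥(centralizer ({t} : Set K)) →* L) (hf : Function.Surjective f) (hk : Group.IsSolvable f.ker)
    (h3 : ∀ g : ↥(centralizer ({t} : Set K)), f g = 1 → orderOf g ≠ 3) (hL : G3 L) (hZ : center L = ⊥) : False :=
  h3 ⟨x, mem_centralizer_singleton_iff.2 hxt⟩ (h.map_eq_one _ f hf hk hL hZ) (by rw [Subgroup.orderOf_mk, h.ord])

end Cfsg.Agent.H345.SN
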